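import Mathlib
import Cfsg.Agent.Lib.Helper88.SmallAut

set_option autoImplicit false

namespace Cfsg.Agent.Lib.Helper88

/-- an odd-order automorphism stabilising a cyclic 2-subgroup `⟨x⟩` fixes `x`. -/
theorem odd_aut_fix_cyclic {G : Type*} [Group G] (α : MulAut G) {m : ℕ} (hm : Odd m)
    (hαm : α ^ m = 1) {x : G} {k : ℕ} (hx : orderOf x = 2 ^ k) {j : ℕ} (hαx : α x = x ^ j) :
    α x = x := by
  rcases Nat.eq_zero_or_pos k with hk | hk
  · subst hk
    have : x = 1 := by rwa [pow_zero, orderOf_eq_one_iff] at hx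
    rw [this, map_one]
  have h1 : ∀ t : ℕ, (α ^ t) x = x ^ (j ^ t) := by
    intro t
    induction t with
    | zero => simp
    | succ t ih => rw [pow_succ', MulAut.mul_apply, ih, map_pow, hαx, ← pow_mul, pow_succ']
  have h2 : x ^ (j ^ m) = x ^ 1 := by rw [← h1 m, hαm, MulAut.one_apply, pow_one]
  have h3 : j ^ m ≡ 1 [MOD 2 ^ k] := by rw [← hx]; exact pow_eq_pow_iff_modEq.1 h2
  have h4 : ((j : ZMod (2 ^ k)) ^ m) = 1 := by
    have := (ZMod.natCast_eq_natCast_iff _ _ _).2 h3
    push_cast at this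
    exact this
  have hm0 : m ≠ 0 := by
    rintro rfl
    obtain ⟨t, ht⟩ := hm
    omega
  have : NeZero (2 ^ k) := ⟨by positivity⟩
  let u : (ZMod (2 ^ k))ˣ := Units.ofPowEqOne (j : ZMod (2 ^ k)) m h4 hm0
  have hu1 : u ^ m = 1 := Units.ext (by simp [u])
  have hu2 : u ^ (2 ^ (k - 1)) = 1 := by
    have := pow_card_eq_one (G := (ZMod (2 ^ k))ˣ) (x := u)
    rw [ZMod.card_units_eq_totient, Nat.totient_prime_pow Nat.prime_two hk] at this
    simpa using this
  have hu : u = 1 := by
    have hd1 := orderOf_dvd_of_pow_eq_one hu1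
    have hd2 := orderOf_dvd_of_pow_eq_one hu2
    have h : orderOf u ∣ Nat.gcd m (2 ^ (k - 1)) := Nat.dvd_gcd hd1 hd2
    have hc : Nat.gcd m (2 ^ (k - 1)) = 1 := Nat.Coprime.pow_right _ (Nat.coprime_two_right.2 hm)
    rw [hc, Nat.dvd_one, orderOf_eq_one_iff] at h
    exact h
  have h5 : (j : ZMod (2 ^ k)) = ((1 : ℕ) : ZMod (2 ^ k)) := by
    have := congrArg Units.val hu
    simpa [u] using this
  have h6 : j ≡ 1 [MOD 2 ^ k] := (ZMod.natCast_eq_natCast_iff _ _ _).1 h5
  rw [hαx]
  have : x ^ j = x ^ 1 := by rw [pow_eq_pow_iff_modEq, hx]; exact h6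
  rw [this, pow_one]

open DihedralGroup in
/-- odd-order automorphisms of a dihedral 2-group of order at least 8 are trivial. -/
theorem dihedral_odd_aut {N k : ℕ} (hN : N = 2 ^ k) (hk : 2 ≤ k) (α : MulAut (DihedralGroup N))
    {m : ℕ} (hm : Odd m) (hαm : α ^ m = 1) : α = 1 := by
  have : NeZero N := ⟨by rw [hN]; positivity⟩
  have hN4 : 4 ≤ N := by
    rw [hN]
    calc 4 = 2 ^ 2 := by norm_num
      _ ≤ 2 ^ k := Nat.pow_le_pow_right (by norm_num) hk
  have hr1 : orderOf (r 1 : DihedralGroup N) = 2 ^ k := by rw [orderOf_r_one, hN]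
  have hrpow : ∀ i : ZMod N, (r i : DihedralGroup N) = (r 1) ^ i.val := by
    intro i
    rw [r_one_pow, ZMod.natCast_zmod_val]
  have hα1 : α (r 1) = r 1 := by
    have ho : orderOf (α (r 1)) = N := by
      rw [MulEquiv.orderOf_eq, orderOf_r_one]
    rcases h : α (r 1) with j | j
    · rw [← h]
      apply odd_aut_fix_cyclic α hm hαm hr1 (j := j.val)
      rw [h, hrpow j]
    · rw [h, orderOf_sr] at ho
      omega
  have hαr : ∀ i : ZMod N, α (r i) = r i := by
    intro i
    rw [hrpow i, map_pow, hα1]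
  have h2 : (2 : ZMod N) ≠ 0 := by
    intro h
    have h' : ((2 : ℕ) : ZMod N) = 0 := by exact_mod_cast h
    rw [ZMod.natCast_eq_zero_iff] at h'
    have := Nat.le_of_dvd (by norm_num) h'
    omega
  have hαs : α (sr 0) = sr 0 := by
    rcases h : α (sr 0) with i | c
    · exfalso
      have h3 : α (sr 0 * r 1) = α (r 1 * sr 0) := by
        rw [map_mul, map_mul, h, hα1, r_mul_r, r_mul_r, add_comm]
      have h4 := α.injective h3
      rw [sr_mul_r, r_mul_sr] at h4
      have h5 : (0 : ZMod N) + 1 = 0 - 1 := by simpa using h4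
      apply h2
      have : (2 : ZMod N) = (0 + 1) - (0 - 1) := by ring
      rw [this, h5]; ring
    · have h3 : α (sr 0) = sr 0 * r c := by rw [h, sr_mul_r, zero_add]
      have h4 : r c = (1 : DihedralGroup N) := by
        apply eq_one_of_coprime_fix (p := 2) α (Nat.coprime_two_right.2 hm) hαm h3 (hαr c) (k := k)
        rw [hrpow c, ← pow_mul, mul_comm c.val (2 ^ k), pow_mul, ← hr1, pow_orderOf_eq_one, one_pow]
      rw [← h, h3, h4, mul_one]
  ext g
  rcases g with i | i
  · rw [hαr i]; rfl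
  · have : (sr i : DihedralGroup N) = sr 0 * r i := by rw [sr_mul_r, zero_add]
    rw [this, map_mul, hαs, hαr i]; rfl

open QuaternionGroup in
/-- odd-order automorphisms of a generalized quaternion 2-group of order at least 16 are
trivial. -/
theorem quaternion_odd_aut {N k : ℕ} (hN : 2 * N = 2 ^ k) (hk : 3 ≤ k)
    (α : MulAut (QuaternionGroup N)) {m : ℕ} (hm : Odd m) (hαm : α ^ m = 1) : α = 1 := by
  have hN8 : 8 ≤ 2 * N := by
    rw [hN]
    calc 8 = 2 ^ 3 := by norm_num
      _ ≤ 2 ^ k := Nat.pow_le_pow_right (by norm_num) hk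
  have : NeZero N := ⟨by omega⟩
  have hr1 : orderOf (a 1 : QuaternionGroup N) = 2 ^ k := by rw [orderOf_a_one, hN]
  have hrpow : ∀ i : ZMod (2 * N), (a i : QuaternionGroup N) = (a 1) ^ i.val := by
    intro i
    rw [a_one_pow, ZMod.natCast_zmod_val]
  have hα1 : α (a 1) = a 1 := by
    have ho : orderOf (α (a 1)) = 2 * N := by
      rw [MulEquiv.orderOf_eq, orderOf_a_one]
    rcases h : α (a 1) with j | j
    · rw [← h]
      apply odd_aut_fix_cyclic α hm hαm hr1 (j := j.val)
      rw [h, hrpow j]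
    · rw [h, orderOf_xa] at ho
      omega
  have hαr : ∀ i : ZMod (2 * N), α (a i) = a i := by
    intro i
    rw [hrpow i, map_pow, hα1]
  have h2 : (2 : ZMod (2 * N)) ≠ 0 := by
    intro h
    have h' : ((2 : ℕ) : ZMod (2 * N)) = 0 := by exact_mod_cast h
    rw [ZMod.natCast_eq_zero_iff] at h'
    have := Nat.le_of_dvd (by norm_num) h'
    omega
  have hαs : α (xa 0) = xa 0 := by
    rcases h : α (xa 0) with i | c
    · exfalso
      have h3 : α (xa 0 * a 1) = α (a 1 * xa 0) := by
        rw [map_mul, map_mul, h, hα1, a_mul_a, a_mul_a, add_comm]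
      have h4 := α.injective h3
      rw [xa_mul_a, a_mul_xa] at h4
      have h5 : (0 : ZMod (2 * N)) + 1 = 0 - 1 := by simpa using h4
      apply h2
      have : (2 : ZMod (2 * N)) = (0 + 1) - (0 - 1) := by ring
      rw [this, h5]; ring
    · have h3 : α (xa 0) = xa 0 * a c := by rw [h, xa_mul_a, zero_add]
      have h4 : a c = (1 : QuaternionGroup N) := by
        apply eq_one_of_coprime_fix (p := 2) α (Nat.coprime_two_right.2 hm) hαm h3 (hαr c) (k := k)
        rw [hrpow c, ← pow_mul, mul_comm c.val (2 ^ k), pow_mul, ← hr1, pow_orderOf_eq_one, one_pow]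
      rw [← h, h3, h4, mul_one]
  ext g
  rcases g with i | i
  · rw [hαr i]; rfl
  · have : (xa i : QuaternionGroup N) = xa 0 * a i := by rw [xa_mul_a, zero_add]
    rw [this, map_mul, hαs, hαr i]; rfl

end Cfsg.Agent.Lib.Helper88
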