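import Mathlib
import Cfsg.Agent.Lib.Helper88.RSModel
import Cfsg.Agent.Lib.Helper89.RealSimple
import Cfsg.Agent.Lib.Helper84.Hyperfocal
import Cfsg.Agent.Lib.Helper86.PPower
import Cfsg.Agent.Lib.Helper2.Transfer

/-!
# `O^p` of a model is a model of the `p`-residual subsystem (package R2 of S5156)

If `(H, ι)` is a model of the fusion system `E` over `S` and `D` is the `p`-residual subsystem of `E`
(saturated, of `p`-power index, over the hyperfocal subgroup), then `O^p(H)` with the restriction of `ι` is a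
model of `D`.
-/

set_option autoImplicit false

namespace Cfsg.Agent.Lib.Helper88

open Cfsg Cfsg.FusionSystem Cfsg.Agent.Lib.Helper85 Cfsg.Agent.Lib.Helper89.RealSimple

section

variable {Ω : Type*} [Group Ω] {S : Subgroup Ω} {H : Type*} [Group H]

theorem aut_pow_ix88 {ι : S →* H} {P : Subgroup Ω} (α : MulAut P) (g : H)
    (h : ∀ x : P, ix ι ((α x : P) : Ω) = g * ix ι (x : Ω) * g⁻¹) (k : ℕ) :
    ∀ x : P, ix ι (((α ^ k) x : P) : Ω) = g ^ k * ix ι (x : Ω) * (g ^ k)⁻¹ := by
  induction k with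
  | zero => intro x; simp
  | succ k ih =>
    intro x
    rw [pow_succ, MulAut.mul_apply, ih, h, pow_succ]
    group

/-- an automorphism of `p'`-order induced (through `ι`) by conjugation is induced by a `p'`-element. -/
theorem exists_pprime_lift88 [Finite H] {p : ℕ} [Fact p.Prime] {ι : S →* H} {P : Subgroup Ω}
    (α : MulAut P) (hα : Nat.Coprime (orderOf α) p) (g : H)
    (h : ∀ x : P, ix ι ((α x : P) : Ω) = g * ix ι (x : Ω) * g⁻¹) :
    ∃ g' : H, Nat.Coprime (orderOf g') p ∧
      ∀ x : P, ix ι ((α x : P) : Ω) = g' * ix ι (x : Ω) * g'⁻¹ := by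
  have hp : p.Prime := Fact.out
  have hpos : orderOf g ≠ 0 := (orderOf_pos g).ne'
  obtain ⟨a, m, hm, hgm⟩ := Nat.exists_eq_pow_mul_and_not_dvd hpos p hp.ne_one
  have hcop : (p ^ a).Coprime (orderOf α) := Nat.Coprime.pow_left a hα.symm
  obtain ⟨t, ht⟩ := exists_pow_eq_self_of_coprime hcop
  refine ⟨(g ^ (p ^ a)) ^ t, ?_, fun x => ?_⟩
  · have h1 : orderOf (g ^ (p ^ a)) = m := by
      rw [orderOf_pow, hgm]
      have hm0 : m ≠ 0 := by
        rintro rfl
        exact hm (dvd_zero p)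
      have hg : Nat.gcd (p ^ a * m) (p ^ a) = p ^ a := Nat.gcd_eq_right (dvd_mul_right _ _)
      rw [hg, Nat.mul_div_cancel_left _ (pow_pos hp.pos a)]
    have h2 : orderOf ((g ^ (p ^ a)) ^ t) ∣ m := h1 ▸ orderOf_pow_dvd t
    exact Nat.Coprime.coprime_dvd_left h2 ((Nat.Prime.coprime_iff_not_dvd hp).2 hm).symm
  · have h3 := aut_pow_ix88 α g h (p ^ a * t) x
    rw [pow_mul, ht, pow_mul] at h3
    exact h3

/-- an injective homomorphism maps `O^p` into `O^p`. -/
theorem pResidual_map_mem88 {A B : Type*} [Group A] [Group B] (p : ℕ) (f : A →* B)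
    (hf : Function.Injective f) {a : A} (ha : a ∈ Cfsg.pResidual p A) : f a ∈ Cfsg.pResidual p B := by
  have h : Cfsg.pResidual p A ≤ (Cfsg.pResidual p B).comap f := by
    unfold Cfsg.pResidual
    rw [Subgroup.closure_le]
    intro x hx
    rw [SetLike.mem_coe, Subgroup.mem_comap]
    apply Subgroup.subset_closure
    show Nat.Coprime (orderOf (f x)) p
    rw [orderOf_injective f hf x]
    exact hx
  exact h ha

/-- (A) the hyperfocal subgroup of a realized system lies in the preimage of `O^p` of the realizing group. -/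
theorem hyp_le_preSub88 [Finite H] {p : ℕ} [Fact p.Prime] {E : FusionSystem S} {ι : S →* H}
    (hreal : E.IsRealizedBy ι) :
    E.hyperfocalSubgroup p ≤ preSub ι (Cfsg.pResidual p H) := by
  have hK : (Cfsg.pResidual p H).Normal := Cfsg.Agent.Lib.Helper2.pResidual_normal p
  unfold hyperfocalSubgroup
  rw [Subgroup.closure_le]
  rintro _ ⟨P, α, x, hPS, hα, rfl⟩
  rw [SetLike.mem_coe, mem_preSub_iff]
  have hxS : (x : Ω) ∈ S := hPS x.2
  have hαxS : (((α : MulAut P) x : P) : Ω) ∈ S := hPS ((α : MulAut P) x).2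
  refine ⟨S.mul_mem (S.inv_mem hxS) hαxS, ?_⟩
  rw [ix_mul ι (S.inv_mem hxS) hαxS, ix_inv ι hxS]
  have key : ∀ β : E.autGroup P, β ∈ Cfsg.pResidual p (E.autGroup P) →
      ∀ y : P, (ix ι (y : Ω))⁻¹ * ix ι (((β : MulAut P) y : P) : Ω) ∈ Cfsg.pResidual p H := by
    intro β hβ
    unfold Cfsg.pResidual at hβ
    induction hβ using Subgroup.closure_induction with
    | mem γ hγ =>
      intro y
      have hγ' : Nat.Coprime (orderOf γ) p := hγ
      have hord : Nat.Coprime (orderOf (γ : MulAut P)) p := by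
        rw [Subgroup.orderOf_coe]; exact hγ'
      obtain ⟨n, hn⟩ := exists_of_mem_autGroup hreal hPS γ.2
      obtain ⟨g', hg'cop, hg'⟩ := exists_pprime_lift88 (γ : MulAut P) hord n hn
      have hg'K : g' ∈ Cfsg.pResidual p H := Subgroup.subset_closure hg'cop
      rw [hg']
      have h1 : (ix ι (y : Ω))⁻¹ * g' * (ix ι (y : Ω))⁻¹⁻¹ ∈ Cfsg.pResidual p H :=
        hK.conj_mem g' hg'K _
      have h2 := Subgroup.mul_mem _ h1 (Subgroup.inv_mem _ hg'K)
      have e : (ix ι (y : Ω))⁻¹ * g' * (ix ι (y : Ω))⁻¹⁻¹ * g'⁻¹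
          = (ix ι (y : Ω))⁻¹ * (g' * ix ι (y : Ω) * g'⁻¹) := by group
      rwa [e] at h2
    | one =>
      intro y
      simp
    | mul a b _ _ iha ihb =>
      intro y
      have h1 := ihb y
      have h2 := iha ((b : MulAut P) y)
      have h3 := Subgroup.mul_mem _ h1 h2
      have e : (ix ι (y : Ω))⁻¹ * ix ι (((b : MulAut P) y : P) : Ω) *
          ((ix ι (((b : MulAut P) y : P) : Ω))⁻¹ * ix ι (((a : MulAut P) ((b : MulAut P) y) : P) : Ω))
          = (ix ι (y : Ω))⁻¹ * ix ι (((a : MulAut P) ((b : MulAut P) y) : P) : Ω) := by group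
      rw [e] at h3
      exact h3
    | inv a _ iha =>
      intro y
      have h1 := iha ((a : MulAut P)⁻¹ y)
      have h2 := Subgroup.inv_mem _ h1
      have e1 : (a : MulAut P) ((a : MulAut P)⁻¹ y) = y := by
        rw [← MulAut.mul_apply, mul_inv_cancel]; rfl
      rw [e1] at h2
      have e : ((ix ι ((((a : MulAut P)⁻¹ y : P)) : Ω))⁻¹ * ix ι (y : Ω))⁻¹
          = (ix ι (y : Ω))⁻¹ * ix ι ((((a : MulAut P)⁻¹ y : P)) : Ω) := by group
      rw [e] at h2
      exact h2
  exact key α hα x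

/-- the system induced by `O^p` of the realizing group has `p`-power index. -/
theorem pullSys_ppow88 [Finite H] {p : ℕ} [Fact p.Prime] {E : FusionSystem S} {ι : S →* H}
    (hreal : E.IsRealizedBy ι) :
    (pullSys ι hreal.1 (Cfsg.pResidual p H)).HasPPowerIndexIn E p := by
  have hS₀ : preSub ι (Cfsg.pResidual p H) ≤ S := preSub_le ι _
  refine ⟨?_, hyp_le_preSub88 hreal, ?_⟩
  · rintro P φ ⟨hP, hφ, g, -, hg⟩
    exact (mem_iff_ix hreal (hP.trans hS₀) φ (fun x => hS₀ (hφ x))).mpr ⟨g, hg⟩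
  · intro P hPT
    have hPS : P ≤ S := hPT.trans hS₀
    rw [Subgroup.map_le_iff_le_comap]
    refine (Subgroup.closure_le _).2 ?_
    intro α hα
    have hα' : Nat.Coprime (orderOf α) p := hα
    rw [SetLike.mem_coe, Subgroup.mem_comap]
    show ((α : MulAut P)) ∈ _
    have hord : Nat.Coprime (orderOf (α : MulAut P)) p := by
      rw [Subgroup.orderOf_coe]; exact hα'
    obtain ⟨n, hn⟩ := exists_of_mem_autGroup hreal hPS α.2
    obtain ⟨g', hg'cop, hg'⟩ := exists_pprime_lift88 (α : MulAut P) hord n hn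
    have hg'K : g' ∈ Cfsg.pResidual p H := Subgroup.subset_closure hg'cop
    rw [Cfsg.Agent.Lib.Helper84.mem_autGroup_iff _ hPT]
    refine ⟨hPT, fun x => hPT ((α : MulAut P) x).2, g', hg'K, fun x => hg' x⟩

/-- (B) Puig's hyperfocal subgroup theorem, read through a realization: the preimage of `O^p` of the realizing
group lies in the hyperfocal subgroup. -/
theorem preSub_le_hyp88 [Finite H] {p : ℕ} [Fact p.Prime] {E : FusionSystem S} {ι : S →* H}
    (hreal : E.IsRealizedBy ι) (T : Sylow p H) (hT : (T : Subgroup H) = ι.range) :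
    preSub ι (Cfsg.pResidual p H) ≤ E.hyperfocalSubgroup p := by
  have hinj := hreal.1
  have hhypS : E.hyperfocalSubgroup p ≤ S := Cfsg.Agent.Lib.Helper86.hyperfocal_le E p
  have key : ∀ y ∈ (groupFusionSystem (T : Subgroup H)).hyperfocalSubgroup p,
      ∃ x ∈ E.hyperfocalSubgroup p, ix ι x = y := by
    intro y hy
    unfold hyperfocalSubgroup at hy
    induction hy using Subgroup.closure_induction with
    | mem z hz =>
      obtain ⟨R, α, r, hRT, hα, rfl⟩ := hz
      have hRr : R ≤ ι.range := hT ▸ hRT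
      obtain ⟨e, he⟩ := exists_equiv_preSub hinj hRr
      have hR₀ : preSub ι R ≤ S := preSub_le ι R
      have heix : ∀ x : ↥(preSub ι R), ((e x : R) : H) = ix ι (x : Ω) := by
        intro x
        rw [he, ix_of_mem ι (hR₀ x.2)]
      -- transport of automorphisms
      have hΦ : ∀ β : MulAut R, β ∈ (groupFusionSystem (T : Subgroup H)).autGroup R →
          (MulAut.congr e.symm) β ∈ E.autGroup (preSub ι R) := by
        intro β hβ
        rw [Cfsg.Agent.Lib.Helper84.mem_autGroup_iff _ hRT] at hβ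
        obtain ⟨-, -, g, hg⟩ := hβ
        refine mem_autGroup_of hreal hR₀ g (fun x => ?_)
        have h1 : ((MulAut.congr e.symm) β) x = e.symm (β (e x)) := rfl
        rw [h1, ← heix, MulEquiv.apply_symm_apply, ← heix]
        exact hg (e x)
      let f : (groupFusionSystem (T : Subgroup H)).autGroup R →* E.autGroup (preSub ι R) :=
        ((MulAut.congr e.symm).toMonoidHom.comp
          ((groupFusionSystem (T : Subgroup H)).autGroup R).subtype).codRestrict _
          (fun β => hΦ β β.2)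
      have hf : Function.Injective f := by
        intro a b hab
        have h1 : (MulAut.congr e.symm) (a : MulAut R) = (MulAut.congr e.symm) (b : MulAut R) :=
          congrArg Subtype.val hab
        exact Subtype.ext ((MulAut.congr e.symm).injective h1)
      have hfα : f α ∈ Cfsg.pResidual p (E.autGroup (preSub ι R)) := pResidual_map_mem88 p f hf hα
      have hfα_apply : ∀ x : ↥(preSub ι R),
          ix ι ((((f α : MulAut ↥(preSub ι R)) x : ↥(preSub ι R))) : Ω)
            = (((α : MulAut R) (e x) : R) : H) := by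
        intro x
        have h1 : ((f α : MulAut ↥(preSub ι R)) x) = e.symm ((α : MulAut R) (e x)) := rfl
        rw [h1, ← heix, MulEquiv.apply_symm_apply]
      refine ⟨((e.symm r : ↥(preSub ι R)) : Ω)⁻¹ *
          (((f α : MulAut ↥(preSub ι R)) (e.symm r) : ↥(preSub ι R)) : Ω), ?_, ?_⟩
      · unfold hyperfocalSubgroup
        exact Subgroup.subset_closure ⟨preSub ι R, f α, e.symm r, hR₀, hfα, rfl⟩
      · rw [ix_mul ι (S.inv_mem (hR₀ (e.symm r).2)) (hR₀ (_ : ↥(preSub ι R)).2),
          ix_inv ι (hR₀ (e.symm r).2), hfα_apply, ← heix, MulEquiv.apply_symm_apply]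
    | one =>
      refine ⟨1, Subgroup.one_mem _, ?_⟩
      rw [ix_of_mem ι (S.one_mem)]
      exact map_one ι
    | mul a b _ _ iha ihb =>
      obtain ⟨x₁, hx₁, rfl⟩ := iha
      obtain ⟨x₂, hx₂, rfl⟩ := ihb
      exact ⟨x₁ * x₂, Subgroup.mul_mem _ hx₁ hx₂, ix_mul ι (hhypS hx₁) (hhypS hx₂)⟩
    | inv a _ iha =>
      obtain ⟨x₁, hx₁, rfl⟩ := iha
      exact ⟨x₁⁻¹, Subgroup.inv_mem _ hx₁, ix_inv ι (hhypS hx₁)⟩
  intro x hx
  have h1 : ix ι x ∈ ι.range ⊓ Cfsg.pResidual p H := ix_mem_of_mem_preSub hx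
  rw [← hT, ← Cfsg.Agent.Lib.Helper84.hyperfocal_eq p T] at h1
  obtain ⟨x', hx', hxx⟩ := key _ h1
  have h2 : x' = x := ix_inj hinj (hhypS hx') (preSub_le ι _ hx) hxx
  rw [← h2]; exact hx'

/-- the hyperfocal subgroup of a system realized on a Sylow subgroup is the preimage of `O^p`. -/
theorem hyp_eq_preSub88 [Finite H] {p : ℕ} [Fact p.Prime] {E : FusionSystem S} {ι : S →* H}
    (hreal : E.IsRealizedBy ι) (T : Sylow p H) (hT : (T : Subgroup H) = ι.range) :
    E.hyperfocalSubgroup p = preSub ι (Cfsg.pResidual p H) :=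
  le_antisymm (hyp_le_preSub88 hreal) (preSub_le_hyp88 hreal T hT)

theorem model_pResidual_aux88 [Finite S] (p : ℕ) [Fact p.Prime] (hS : IsPGroup p S)
    (E : FusionSystem S) (ι : S →* H) (hm : E.IsModel p H ι)
    (U : Subgroup Ω) (hU : U = preSub ι (Cfsg.pResidual p H)) (D : FusionSystem U)
    (hDs : D.IsSaturated p) (hDp : D.HasPPowerIndexIn E p) :
    ∃ ιK : ↥U →* ↥(Cfsg.pResidual p H),
      (∀ x : U, ((ιK x : ↥(Cfsg.pResidual p H)) : H) = ix ι (x : Ω)) ∧
        D.IsModel p ↥(Cfsg.pResidual p H) ιK := by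
  subst hU
  obtain ⟨hfin, hreal, ⟨T, hT⟩, hcent⟩ := hm
  have := hfin
  have : (Cfsg.pResidual p H).Normal := Cfsg.Agent.Lib.Helper2.pResidual_normal p
  obtain ⟨R, hR⟩ := exists_sylow_pullHom ι T hT (Cfsg.pResidual p H)
  have hD'sat : (pullSys ι hreal.1 (Cfsg.pResidual p H)).IsSaturated p :=
    realized_isSaturated (pullSys_realized ι hreal.1 _) R hR
  have heq : D = pullSys ι hreal.1 (Cfsg.pResidual p H) :=
    Cfsg.Agent.Lib.Helper86.eq_of_hasPPowerIndexIn hS E D _ hDs hD'sat hDp (pullSys_ppow88 hreal)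
  refine ⟨pullHom ι _, fun x => pullHom_coe ι _ x, inferInstance, ?_, ⟨R, hR⟩,
    centralizer_pCore_le_of_normal88 p _ hcent⟩
  rw [heq]
  exact pullSys_realized ι hreal.1 _

/-- **(R2)** `O^p` of a model of `E` is a model of the `p`-residual subsystem of `E`. -/
theorem model_pResidual88 [Finite S] (p : ℕ) [Fact p.Prime] (hS : IsPGroup p S)
    (E : FusionSystem S) (D : FusionSystem (E.hyperfocalSubgroup p)) (hD : E.IsPResidual p D)
    (ι : S →* H) (hm : E.IsModel p H ι) :
    ∃ ιK : ↥(E.hyperfocalSubgroup p) →* ↥(Cfsg.pResidual p H),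
      (∀ x : ↥(E.hyperfocalSubgroup p), ((ιK x : ↥(Cfsg.pResidual p H)) : H) = ix ι (x : Ω)) ∧
        D.IsModel p ↥(Cfsg.pResidual p H) ιK := by
  obtain ⟨T, hT⟩ := hm.2.2.1
  have := hm.1
  exact model_pResidual_aux88 p hS E ι hm _ (hyp_eq_preSub88 hm.2.1 T hT) D hD.1 hD.2

end

end Cfsg.Agent.Lib.Helper88
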